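import Cfsg.Agent.Lib.Helper85.AltModel
set_option autoImplicit false
set_option linter.unusedSectionVars false
namespace Cfsg.Agent.Lib.Helper22.AltP6a
open Equiv Equiv.Perm Cfsg.Agent.Lib.Helper85.AltM
variable {p : ℕ} [Fact p.Prime] {κ ε : Type} [Fintype κ] [DecidableEq κ] [Fintype ε] [DecidableEq ε]

/-- the function `a ↦ s a` on the first `p` blocks. -/
def FF (s : ZMod p) : Idx p κ → ZMod p := Sum.elim (fun a => s * a) (fun _ => 0)

@[simp] theorem FF_inl (s a : ZMod p) : FF (κ := κ) s (Sum.inl a) = s * a := rfl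
@[simp] theorem FF_inr (s : ZMod p) (k : κ) : FF (κ := κ) s (Sum.inr k) = 0 := rfl

theorem sh_add (s s' : ZMod p) : sh (κ := κ) (s + s') = sh s * sh s' := by
  apply Equiv.ext
  rintro ⟨(a | k), x⟩
  · simp only [Perm.mul_apply, sh_apply_inl]
    congr 2
    ring
  · simp only [Perm.mul_apply, sh_apply_inr]

theorem sh_zero : sh (κ := κ) (0 : ZMod p) = 1 := by
  apply Equiv.ext
  rintro ⟨(a | k), x⟩
  · simp
  · simp

theorem sh_neg (s : ZMod p) : sh (κ := κ) (-s) = (sh s)⁻¹ := by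
  rw [eq_inv_iff_mul_eq_one, ← sh_add, neg_add_cancel, sh_zero]

theorem sh_nsmul (s : ZMod p) (k : ℕ) : sh (κ := κ) (k • s) = sh s ^ k := by
  induction k with
  | zero => simp [sh_zero]
  | succ k ih => rw [succ_nsmul, sh_add, ih, pow_succ]

theorem sh_pow_p (s : ZMod p) : sh (κ := κ) s ^ p = 1 := by
  rw [← sh_nsmul]
  have : p • s = 0 := by simp
  rw [this, sh_zero]

theorem sign_of_pow_p {α : Type*} [Fintype α] [DecidableEq α] (hp : p ≠ 2) (g : Perm α) (hg : g ^ p = 1) :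
    sign g = 1 := by
  have hodd : Odd p := (Fact.out : p.Prime).odd_of_ne_two hp
  have h1 : sign g ^ p = 1 := by rw [← map_pow, hg, map_one]
  rcases Int.units_eq_one_or (sign g) with h | h
  · exact h
  · rw [h, hodd.neg_one_pow] at h1
    exact absurd h1 (by decide)

theorem tau_apply_inl (b : (ZMod p)ˣ) (a x : ZMod p) :
    tau (κ := κ) b (Sum.inl a, x) = (Sum.inl ((b : ZMod p) * a), ((b⁻¹ : (ZMod p)ˣ) : ZMod p) * x) := rfl

theorem tau_apply_inr (b : (ZMod p)ˣ) (k : κ) (x : ZMod p) :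
    tau (κ := κ) b (Sum.inr k, x) = (Sum.inr k, x) := by
  show (Sum.inr k, ((1 : (ZMod p)ˣ) : ZMod p) * x) = _
  simp

theorem tau_eq (b : (ZMod p)ˣ) :
    tau (κ := κ) b = sh (b : ZMod p) * tr (FF (-((b⁻¹ : (ZMod p)ˣ) : ZMod p))) * sh (b : ZMod p) *
      (sh (-1) * tr (FF 1) * sh (-1)) := by
  have hb : (b : ZMod p) * ((b⁻¹ : (ZMod p)ˣ) : ZMod p) = 1 := Units.mul_inv b
  apply Equiv.ext
  rintro ⟨(a | k), x⟩
  · simp only [Perm.mul_apply, sh_apply_inl, tr_apply, FF_inl, tau_apply_inl]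
    refine Prod.ext ?_ ?_
    · simp only
      congr 1
      linear_combination (-x + b * a) * hb
    · simp only
      linear_combination (a) * hb
  · simp only [Perm.mul_apply, sh_apply_inr, tr_apply, FF_inr, tau_apply_inr, add_zero]

theorem sh_conj_vt (s s' c : ZMod p) (h : κ → ZMod p) :
    sh s * vt s' c h * (sh s)⁻¹ = vt (s' + s * c) c h := by
  rw [mul_inv_eq_iff_eq_mul]
  apply Equiv.ext
  rintro ⟨(a | k), x⟩
  · simp only [Perm.mul_apply, sh_apply_inl, vt_apply_inl]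
    congr 2
    ring
  · simp only [Perm.mul_apply, sh_apply_inr, vt_apply_inr]

theorem trF_conj_vt (s s' c : ZMod p) (h : κ → ZMod p) :
    tr (FF s) * vt s' c h * (tr (FF s))⁻¹ = vt s' (c + s * s') h := by
  rw [mul_inv_eq_iff_eq_mul]
  apply Equiv.ext
  rintro ⟨(a | k), x⟩
  · simp only [Perm.mul_apply, tr_apply, vt_apply_inl, FF_inl]
    congr 1
    ring
  · simp only [Perm.mul_apply, tr_apply, vt_apply_inr, FF_inr, add_zero]

theorem FF_neg (s : ZMod p) : FF (κ := κ) (-s) = - FF s := by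
  funext i
  rcases i with a | k <;> simp

theorem mem_normalizer_of {G : Type*} [Group G] (H : Subgroup G) (g : G)
    (h1 : ∀ x ∈ H, g * x * g⁻¹ ∈ H) (h2 : ∀ x ∈ H, g⁻¹ * x * g ∈ H) :
    g ∈ Subgroup.normalizer (H : Set G) := by
  rw [Subgroup.mem_normalizer_iff]
  intro x
  refine ⟨h1 x, fun hx => ?_⟩
  have := h2 _ hx
  simpa [mul_assoc] using this

theorem J_sh_mem (hp : p ≠ 2) (s : ZMod p) :
    J ε (sh (κ := κ) s) ∈ {y : Perm (M p κ ε) | y ∈ alternatingGroup (M p κ ε) ∧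
      y ∈ Subgroup.normalizer (VV p κ ε : Set (Perm (M p κ ε))) ∧ ∃ k : ℕ, y ^ p ^ k = 1} := by
  refine ⟨?_, ?_, 1, ?_⟩
  · rw [Equiv.Perm.mem_alternatingGroup, sign_J]
    exact sign_of_pow_p hp _ (sh_pow_p s)
  · apply mem_normalizer_of
    · rintro _ ⟨s', c, h, rfl⟩
      exact ⟨s' + s * c, c, h, by rw [← map_inv, ← map_mul, ← map_mul, sh_conj_vt]⟩
    · rintro _ ⟨s', c, h, rfl⟩
      refine ⟨s' + (-s) * c, c, h, ?_⟩
      rw [← sh_conj_vt, sh_neg, inv_inv, map_mul, map_mul, map_inv]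
  · rw [pow_one, ← map_pow, sh_pow_p, map_one]

theorem J_trF_mem (hp : p ≠ 2) (s : ZMod p) :
    J ε (tr (FF (κ := κ) s)) ∈ {y : Perm (M p κ ε) | y ∈ alternatingGroup (M p κ ε) ∧
      y ∈ Subgroup.normalizer (VV p κ ε : Set (Perm (M p κ ε))) ∧ ∃ k : ℕ, y ^ p ^ k = 1} := by
  refine ⟨?_, ?_, 1, ?_⟩
  · rw [Equiv.Perm.mem_alternatingGroup, sign_J]
    exact sign_of_pow_p hp _ (tr_pow_p _)
  · apply mem_normalizer_of
    · rintro _ ⟨s', c, h, rfl⟩
      exact ⟨s', c + s * s', h, by rw [← map_inv, ← map_mul, ← map_mul, trF_conj_vt]⟩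
    · rintro _ ⟨s', c, h, rfl⟩
      refine ⟨s', c + (-s) * s', h, ?_⟩
      rw [← trF_conj_vt, FF_neg, tr_neg, inv_inv, map_mul, map_mul, map_inv]
  · rw [pow_one, ← map_pow, tr_pow_p, map_one]

theorem tau_mem_closure (hp : p ≠ 2) (b : (ZMod p)ˣ) :
    J ε (tau b) ∈ Subgroup.closure {y : Perm (M p κ ε) | y ∈ alternatingGroup (M p κ ε) ∧
      y ∈ Subgroup.normalizer (VV p κ ε : Set (Perm (M p κ ε))) ∧ ∃ k : ℕ, y ^ p ^ k = 1} := by
  rw [tau_eq]
  simp only [map_mul]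
  have h1 := fun s : ZMod p => Subgroup.subset_closure (J_sh_mem (κ := κ) (ε := ε) hp s)
  have h2 := fun s : ZMod p => Subgroup.subset_closure (J_trF_mem (κ := κ) (ε := ε) hp s)
  exact mul_mem (mul_mem (mul_mem (h1 _) (h2 _)) (h1 _)) (mul_mem (mul_mem (h1 _) (h2 _)) (h1 _))

end Cfsg.Agent.Lib.Helper22.AltP6a
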