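import Cfsg.Agent.Lib.Helper85.AltModel
set_option autoImplicit false
set_option linter.unusedSectionVars false
namespace Cfsg.Agent.Lib.Helper22.AltP6b
open Equiv Equiv.Perm Cfsg.Agent.Lib.Helper85.AltM
variable {p : ℕ} [Fact p.Prime] {κ ε : Type} [Fintype κ] [DecidableEq κ] [Fintype ε] [DecidableEq ε]

theorem tau_apply_inl (b : (ZMod p)ˣ) (a x : ZMod p) :
    tau (κ := κ) b (Sum.inl a, x) = (Sum.inl ((b : ZMod p) * a), ((b⁻¹ : (ZMod p)ˣ) : ZMod p) * x) := rfl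

theorem tau_apply_inr (b : (ZMod p)ˣ) (k : κ) (x : ZMod p) :
    tau (κ := κ) b (Sum.inr k, x) = (Sum.inr k, x) := by
  show (Sum.inr k, ((1 : (ZMod p)ˣ) : ZMod p) * x) = _
  simp

theorem tau_inv (b : (ZMod p)ˣ) : tau (κ := κ) b⁻¹ = (tau b)⁻¹ := by
  rw [eq_inv_iff_mul_eq_one]
  apply Equiv.ext
  rintro ⟨(a | k), x⟩
  · simp only [Perm.mul_apply, tau_apply_inl, inv_inv, Perm.one_apply]
    rw [← mul_assoc, ← mul_assoc, Units.inv_mul, Units.mul_inv, one_mul, one_mul]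
  · simp only [Perm.mul_apply, tau_apply_inr, Perm.one_apply]

/-- the conjugated translation function. -/
def cf (b : (ZMod p)ˣ) (f : Idx p κ → ZMod p) : Idx p κ → ZMod p :=
  Sum.elim (fun c => ((b⁻¹ : (ZMod p)ˣ) : ZMod p) * f (Sum.inl (((b⁻¹ : (ZMod p)ˣ) : ZMod p) * c)))
    (fun k => f (Sum.inr k))

theorem tau_conj (b : (ZMod p)ˣ) (f : Idx p κ → ZMod p) (s : ZMod p) :
    tau b * (tr f * bl (T s)) * (tau b)⁻¹ = tr (cf b f) * bl (T ((b : ZMod p) * s)) := by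
  rw [mul_inv_eq_iff_eq_mul]
  apply Equiv.ext
  rintro ⟨(a | k), x⟩
  · simp only [Perm.mul_apply, tau_apply_inl, bl_apply, T_apply_inl, tr_apply, cf, Sum.elim_inl]
    have e : ((b⁻¹ : (ZMod p)ˣ) : ZMod p) * ((b : ZMod p) * a + (b : ZMod p) * s) = a + s := by
      rw [← mul_add, ← mul_assoc, Units.inv_mul, one_mul]
    rw [e, mul_add, mul_add]
  · simp only [Perm.mul_apply, tau_apply_inr, bl_apply, T_apply_inr, tr_apply, cf, Sum.elim_inr]

theorem mem_normalizer_of {G : Type*} [Group G] (H : Subgroup G) (g : G)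
    (h1 : ∀ x ∈ H, g * x * g⁻¹ ∈ H) (h2 : ∀ x ∈ H, g⁻¹ * x * g ∈ H) :
    g ∈ Subgroup.normalizer (H : Set G) := by
  rw [Subgroup.mem_normalizer_iff]
  intro x
  refine ⟨h1 x, fun hx => ?_⟩
  have := h2 _ hx
  simpa [mul_assoc] using this

theorem tau_mem_normalizer_NN (b : (ZMod p)ˣ) :
    J ε (tau (κ := κ) b) ∈ Subgroup.normalizer (NN p κ ε : Set (Perm (M p κ ε))) := by
  apply mem_normalizer_of
  · rintro _ ⟨f, s, rfl⟩
    exact ⟨cf b f, (b : ZMod p) * s, by rw [← map_inv, ← map_mul, ← map_mul, tau_conj]⟩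
  · rintro _ ⟨f, s, rfl⟩
    refine ⟨cf b⁻¹ f, ((b⁻¹ : (ZMod p)ˣ) : ZMod p) * s, ?_⟩
    rw [← tau_conj, tau_inv, inv_inv]
    simp only [map_mul, map_inv]

theorem pow_form (f : Idx p κ → ZMod p) (s : ZMod p) (k : ℕ) :
    ∃ f' : Idx p κ → ZMod p, (tr f * bl (T s)) ^ k = tr f' * bl (T (k • s)) := by
  induction k with
  | zero => exact ⟨0, by simp [tr_zero, T_zero, bl_one]⟩
  | succ k ih =>
    obtain ⟨f', hf'⟩ := ih
    refine ⟨f' + (fun i => f ((T (k • s))⁻¹ i)), ?_⟩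
    rw [pow_succ, hf', succ_nsmul, tr_add, T_add, bl_mul, ← bl_conj_tr]
    group

theorem isPGroup_NN : IsPGroup p (NN p κ ε) := by
  rintro ⟨_, f, s, rfl⟩
  refine ⟨2, ?_⟩
  apply Subtype.ext
  rw [Subgroup.coe_pow, Subgroup.coe_one, ← map_pow, pow_two, pow_mul]
  obtain ⟨f', hf'⟩ := pow_form f s p
  have : p • s = 0 := by simp
  rw [hf', this, T_zero, bl_one, mul_one, tr_pow_p, map_one]

theorem sign_tau (b : (ZMod p)ˣ) : sign (tau (κ := κ) b) = 1 := by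
  unfold tau
  rw [map_mul, sign_bl, sign_ml, Fintype.prod_sum_type]
  simp only [Sum.elim_inl, Sum.elim_inr, Finset.prod_const, Finset.card_univ, ZMod.card]
  have h1 : sign (D (κ := κ) b) = sign (Units.mulLeft b) := by
    unfold D
    have := sign_sumCongr (Units.mulLeft b : Perm (ZMod p)) (1 : Perm κ)
    rw [Equiv.Perm.sign_one, mul_one] at this
    exact this
  have h2 : (Units.mulLeft (1 : (ZMod p)ˣ) : Perm (ZMod p)) = 1 := by
    ext x; simp
  have h3 : (Units.mulLeft b : Perm (ZMod p)) * Units.mulLeft b⁻¹ = 1 := by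
    apply Equiv.ext
    intro x
    show (b : ZMod p) * (((b⁻¹ : (ZMod p)ˣ) : ZMod p) * x) = x
    rw [← mul_assoc, Units.mul_inv, one_mul]
  rw [h1, h2, Equiv.Perm.sign_one, one_pow, mul_one, ← mul_pow, ← map_mul, h3, Equiv.Perm.sign_one, one_pow]

end Cfsg.Agent.Lib.Helper22.AltP6b
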