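import Cfsg.Agent.Lib.Helper85.AltModel
set_option autoImplicit false
set_option linter.unusedSectionVars false
namespace Cfsg.Agent.Lib.Helper22.AltP7
open Equiv Equiv.Perm Cfsg.Agent.Lib.Helper85.AltM
variable {p : ℕ} [Fact p.Prime] {κ ε : Type} [Fintype κ] [DecidableEq κ] [Fintype ε] [DecidableEq ε]

theorem addRight_one_two : (Equiv.addRight (1 : ZMod 2)) = swap 0 1 := by
  apply Equiv.ext
  decide

theorem card_support_J_tr (f : Idx p κ → ZMod p) :
    (J ε (tr f)).support.card = p * (Finset.univ.filter (fun i => f i ≠ 0)).card := by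
  have h : (J ε (tr f)).support = ((Finset.univ.filter (fun i => f i ≠ 0)) ×ˢ
      (Finset.univ : Finset (ZMod p))).map ⟨Sum.inl, Sum.inl_injective⟩ := by
    ext y
    rcases y with ⟨i, x⟩ | e
    · simp [Equiv.Perm.mem_support]
    · simp [Equiv.Perm.mem_support]
  rw [h, Finset.card_map, Finset.card_product, Finset.card_univ, ZMod.card, mul_comm]

theorem cycleType_of_pow {α : Type*} [Fintype α] [DecidableEq α] (z : Perm α) (hz : z ^ p = 1) :
    ∃ n, z.cycleType = Multiset.replicate n p ∧ z.support.card = n * p := by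
  by_cases h1 : z = 1
  · exact ⟨0, by simp [h1], by simp [h1]⟩
  · have ho : orderOf z = p := orderOf_eq_prime hz h1
    obtain ⟨n, hn⟩ := cycleType_prime_order (σ := z) (by rw [ho]; exact Fact.out)
    rw [ho] at hn
    refine ⟨n + 1, hn, ?_⟩
    rw [← sum_cycleType, hn, Multiset.sum_replicate, smul_eq_mul]

theorem isConj_of_card {α : Type*} [Fintype α] [DecidableEq α] (z z' : Perm α) (hz : z ^ p = 1)
    (hz' : z' ^ p = 1) (hcard : z.support.card = z'.support.card) : IsConj z z' := by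
  rw [isConj_iff_cycleType_eq]
  obtain ⟨n, hn, hn'⟩ := cycleType_of_pow z hz
  obtain ⟨m, hm, hm'⟩ := cycleType_of_pow z' hz'
  have : n = m := Nat.eq_of_mul_eq_mul_right (Fact.out : p.Prime).pos (by rw [← hn', ← hm', hcard])
  rw [hn, hm, this]

theorem exists_tr_card [Subsingleton ε] (z : Perm (M p κ ε)) (hz : z ^ p = 1) :
    ∃ f : Idx p κ → ZMod p, (∀ i, f i = 0 ∨ f i = 1) ∧ (J ε (tr f)).support.card = z.support.card := by
  obtain ⟨n, -, hn⟩ := cycleType_of_pow z hz
  have hp : 1 < p := (Fact.out : p.Prime).one_lt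
  have hle : z.support.card ≤ Fintype.card (M p κ ε) := Finset.card_le_univ _
  have hM : Fintype.card (M p κ ε) = Fintype.card (Idx p κ) * p + Fintype.card ε := by
    rw [Fintype.card_sum, Fintype.card_prod, ZMod.card]
  have hε : Fintype.card ε ≤ 1 := Fintype.card_le_one_iff_subsingleton.2 inferInstance
  have hn' : n ≤ Fintype.card (Idx p κ) := by
    by_contra hcon
    rw [not_le] at hcon
    have h1 : (Fintype.card (Idx p κ) + 1) * p ≤ n * p := Nat.mul_le_mul_right _ hcon
    rw [add_mul, one_mul] at h1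
    omega
  obtain ⟨S, -, hS⟩ := Finset.exists_subset_card_eq (s := (Finset.univ : Finset (Idx p κ))) (n := n)
    (by rwa [Finset.card_univ])
  refine ⟨fun i => if i ∈ S then 1 else 0, fun i => by by_cases h : i ∈ S <;> simp [h], ?_⟩
  rw [card_support_J_tr, hn]
  have : Finset.univ.filter (fun i => (if i ∈ S then (1 : ZMod p) else 0) ≠ 0) = S := by
    ext i
    by_cases h : i ∈ S <;> simp [h]
  rw [this, hS, mul_comm]

theorem exists_odd_comm_tr (h3 : 3 ≤ Fintype.card (Idx p κ)) (f : Idx p κ → ZMod p)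
    (hf : ∀ i, f i = 0 ∨ f i = 1) :
    ∃ o : Perm (M p κ ε), sign o = -1 ∧ o * J ε (tr f) = J ε (tr f) * o := by
  by_cases hp : p = 2
  · refine ⟨J ε (tr (Pi.single (Sum.inl 0) 1)), ?_, by rw [← map_mul, ← map_mul, tr_comm]⟩
    rw [sign_J, sign_tr, Finset.prod_eq_single (Sum.inl 0)]
    · rw [Pi.single_eq_same]
      subst hp
      rw [addRight_one_two, sign_swap (by decide)]
    · intro j _ hj
      rw [Pi.single_eq_of_ne hj]
      have : (Equiv.addRight (0 : ZMod p)) = 1 := by
        ext x; simp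
      rw [this, Equiv.Perm.sign_one]
    · intro h; exact absurd (Finset.mem_univ _) h
  · have hodd : Odd p := (Fact.out : p.Prime).odd_of_ne_two hp
    obtain ⟨i, -, j, -, hij, hfij⟩ := Finset.exists_ne_map_eq_of_card_lt_of_maps_to
      (s := (Finset.univ : Finset (Idx p κ))) (t := ({0, 1} : Finset (ZMod p))) (f := f)
      (by
        rw [Finset.card_univ]
        exact lt_of_le_of_lt (Finset.card_le_two) (by omega))
      (by
        intro a _
        rcases hf a with h | h <;> simp [h])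
    refine ⟨J ε (bl (swap i j)), ?_, ?_⟩
    · rw [sign_J, sign_bl, sign_swap hij, hodd.neg_one_pow]
    · rw [← map_mul, ← map_mul]
      congr 1
      have h1 := bl_conj_tr (swap i j) f
      rw [mul_inv_eq_iff_eq_mul] at h1
      rw [h1]
      congr 2
      funext k
      rw [swap_inv]
      by_cases hki : k = i
      · subst hki; rw [swap_apply_left, hfij]
      · by_cases hkj : k = j
        · subst hkj; rw [swap_apply_right, hfij]
        · rw [swap_apply_of_ne_of_ne hki hkj]

theorem exists_odd_comm (h3 : 3 ≤ Fintype.card (Idx p κ)) [Subsingleton ε] (z : Perm (M p κ ε))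
    (hz : z ^ p = 1) : ∃ o : Perm (M p κ ε), sign o = -1 ∧ o * z = z * o := by
  obtain ⟨f, hf, hcard⟩ := exists_tr_card z hz
  have hconj : IsConj (J ε (tr f)) z :=
    isConj_of_card _ _ (by rw [← map_pow, tr_pow_p, map_one]) hz hcard
  obtain ⟨k, hk⟩ := isConj_iff.1 hconj
  obtain ⟨o, ho, hoc⟩ := exists_odd_comm_tr (ε := ε) h3 f hf
  refine ⟨k * o * k⁻¹, ?_, ?_⟩
  · rw [map_mul, map_mul, map_inv, mul_comm, ← mul_assoc, inv_mul_cancel, one_mul, ho]
  · rw [← hk]
    calc k * o * k⁻¹ * (k * J ε (tr f) * k⁻¹) = k * (o * J ε (tr f)) * k⁻¹ := by group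
      _ = k * (J ε (tr f) * o) * k⁻¹ := by rw [hoc]
      _ = _ := by group

theorem conj_alt (h3 : 3 ≤ Fintype.card (Idx p κ)) [Subsingleton ε] (z z' : Perm (M p κ ε)) (hz : z ^ p = 1)
    (hz' : z' ^ p = 1) (hcard : z.support.card = z'.support.card) :
    ∃ h : Perm (M p κ ε), sign h = 1 ∧ h * z * h⁻¹ = z' := by
  obtain ⟨g, hg⟩ := isConj_iff.1 (isConj_of_card z z' hz hz' hcard)
  rcases Int.units_eq_one_or (sign g) with hs | hs
  · exact ⟨g, hs, hg⟩
  · obtain ⟨o, ho, hoc⟩ := exists_odd_comm h3 z hz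
    refine ⟨g * o, by rw [map_mul, hs, ho]; decide, ?_⟩
    rw [← hg]
    calc g * o * z * (g * o)⁻¹ = g * (o * z) * o⁻¹ * g⁻¹ := by group
      _ = g * (z * o) * o⁻¹ * g⁻¹ := by rw [hoc]
      _ = _ := by group

end Cfsg.Agent.Lib.Helper22.AltP7
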