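import Mathlib
import Cfsg.Agent.Lib.Helper23.PComp1
import Cfsg.Agent.Lib.Helper22.PLocalCore

/-!
# `O_{p'}` of local subgroups in ambient form (`coreOf`)
-/

set_option autoImplicit false

namespace Cfsg.Agent.Lib.Helper22

open Subgroup Cfsg Cfsg.Agent.Lib.Helper31 Cfsg.Agent.Lib.Helper23

variable {G : Type*} [Group G]

/-- transport of `coreOf` between `G` and a subgroup `Y` -/
theorem coreOf_subgroupOf_map (p : ℕ) {H Y : Subgroup G} (hHY : H ≤ Y) :
    (coreOf p (H.subgroupOf Y)).map Y.subtype = coreOf p H := by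
  unfold coreOf
  rw [← pPrimeCore_map p (subgroupOfEquivOfLe hHY), Subgroup.map_map, Subgroup.map_map]
  rfl

theorem pLayer_eq_bot_of_isSolvable (p : ℕ) [hs : Group.IsSolvable G] : pLayer p G = ⊥ := by
  apply pLayer_eq_bot_of_layer_quotient
  exact layer_eq_bot_of_le_isSolvable (Q := ⊤) inferInstance le_top

/-- relative form of `pLocal_of_pLayer_eq_bot` -/
theorem coreOf_inf_normalizer_le [Finite G] (p : ℕ) [Fact p.Prime] {Y P : Subgroup G}
    (hY : pLayer p ↥Y = ⊥) (hPY : P ≤ Y) (hP : IsPGroup p P) :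
    coreOf p (Y ⊓ normalizer (P : Set G)) ≤ coreOf p Y := by
  have h1 := (pLocal_of_pLayer_eq_bot p hY (P.subgroupOf Y)
    (hP.comap_of_injective _ (subtype_injective _))).2
  rw [← subgroupOf_normalizer_eq hPY] at h1
  have h2 : (normalizer (P : Set G)).subgroupOf Y = (Y ⊓ normalizer (P : Set G)).subgroupOf Y := by
    rw [inf_subgroupOf_left]
  rw [h2] at h1
  have h3 := map_mono (f := Y.subtype) h1
  have h4 := coreOf_subgroupOf_map p (inf_le_left : Y ⊓ normalizer (P : Set G) ≤ Y)
  unfold coreOf at h4 ⊢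
  rw [h4] at h3
  exact h3

theorem normalizer_le_normalizer_centralizer (P : Subgroup G) :
    normalizer (P : Set G) ≤ normalizer ((centralizer (P : Set G) : Subgroup G) : Set G) := by
  have := le_normalizer_inf_centralizer (A := normalizer (P : Set G)) (K := ⊤) (B := P)
    (by rw [normalizer_eq_top (H := (⊤ : Subgroup G))]; exact le_top) le_rfl
  simpa using this

/-- `O_{p'}(C_Y(P)) ≤ O_{p'}(Y)` when `L_{p'}(Y) = 1`. -/
theorem coreOf_inf_centralizer_le [Finite G] (p : ℕ) [Fact p.Prime] {Y P : Subgroup G}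
    (hY : pLayer p ↥Y = ⊥) (hPY : P ≤ Y) (hP : IsPGroup p P) :
    coreOf p (Y ⊓ centralizer (P : Set G)) ≤ coreOf p Y := by
  refine le_trans ?_ (coreOf_inf_normalizer_le p hY hPY hP)
  apply coreOf_le_coreOf_of_normal p (inf_le_inf_left _ (centralizer_le_normalizer _))
  apply le_normalizer_inf
  · exact inf_le_left.trans le_normalizer
  · exact inf_le_right.trans (normalizer_le_normalizer_centralizer P)

end Cfsg.Agent.Lib.Helper22
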