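import Mathlib
import Cfsg.Agent.Lib.Helper22.Generation2
import Cfsg.Agent.Lib.Helper22.NormalizerQuot
import Cfsg.Agent.Lib.Helper10.Card

/-!
# Factorizations under coprime action (Kurzweil--Stellmacher 11.2)
-/

set_option autoImplicit false

namespace Cfsg.Agent.Lib.Helper22

open Subgroup
open scoped Pointwise

variable {G : Type*} [Group G]

theorem isSylowIn_of_not_dvd_relIndex [Finite G] {q : ℕ} [Fact q.Prime] {E D : Subgroup G}
    (hE : IsPGroup q E) (hED : E ≤ D) (h : ¬ q ∣ E.relIndex D) : IsSylowIn q E D := by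
  have hq : q.Prime := Fact.out
  rw [isSylowIn_iff]
  refine ⟨hED, hE, ?_⟩
  intro R hR hRD hle
  apply le_antisymm _ hle
  rw [← relIndex_eq_one]
  obtain ⟨k, hk⟩ := IsPGroup.iff_card.mp hR
  have h2 : E.relIndex R ∣ q ^ k := hk ▸ relIndex_dvd_card E R
  obtain ⟨j, _, hj⟩ := (Nat.dvd_prime_pow hq).mp h2
  have h3 : E.relIndex R ∣ E.relIndex D := by
    rw [← relIndex_mul_relIndex E R D hle hRD]
    exact dvd_mul_right _ _
  rcases Nat.eq_zero_or_pos j with h0 | h0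
  · rw [hj, h0, pow_zero]
  · exfalso
    apply h
    refine dvd_trans ?_ h3
    rw [hj]
    exact dvd_pow_self _ h0.ne'

theorem IsSylowIn.inf_eq {q : ℕ} {P X Q : Subgroup G} (hP : IsSylowIn q P X) (hPQ : P ≤ Q)
    (hQ : IsPGroup q Q) : Q ⊓ X = P :=
  hP.eq_of_le (hQ.to_le inf_le_left) inf_le_right (le_inf hPQ hP.le)

/-- An `A`-invariant Sylow subgroup of `K` meets `C_K(B)` in a Sylow subgroup, `B ≤ A`, `A` abelian. -/
theorem IsSylowIn.inf_centralizer [Finite G] {p : ℕ} [Fact p.Prime] {A K : Subgroup G}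
    (hA : IsPGroup p A) (hK : ¬ p ∣ Nat.card K) (hAK : A ≤ normalizer (K : Set G))
    {q : ℕ} [Fact q.Prime] {Q : Subgroup G} (hQ : IsSylowIn q Q K)
    (hAQ : A ≤ normalizer (Q : Set G)) (B : Subgroup G) (hBA : B ≤ A)
    (hAB : A ≤ normalizer (B : Set G)) :
    IsSylowIn q (Q ⊓ centralizer (B : Set G)) (K ⊓ centralizer (B : Set G)) := by
  have hAC := le_normalizer_inf_centralizer hAK hAB
  obtain ⟨T, hT, hAT⟩ := exists_invariant_isSylowIn A (K ⊓ centralizer (B : Set G)) hA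
    (not_dvd_card_of_le inf_le_left hK) hAC q
  obtain ⟨Q', hQ', hAQ', hTQ'⟩ := exists_invariant_isSylowIn_ge A K hA hK hAK q T hT.isPGroup
    (hT.le.trans inf_le_left) hAT
  obtain ⟨c, hc, hcQ⟩ := hQ'.exists_conj_centralizer hA hK hAK hQ hAQ' hAQ
  have hc' : c ∈ K ⊓ centralizer (B : Set G) :=
    mem_inf.mpr ⟨(mem_inf.mp hc).1, centralizer_le hBA (mem_inf.mp hc).2⟩
  have h1 : IsSylowIn q (conjS c T) (K ⊓ centralizer (B : Set G)) := by
    have := hT.conj c
    rwa [conjS_eq_of_mem_normalizer (le_normalizer hc')] at this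
  have h2 : conjS c T ≤ Q := by
    rw [← hcQ]; exact map_mono hTQ'
  have h3 : Q ⊓ centralizer (B : Set G) = conjS c T :=
    h1.eq_of_le (hQ.isPGroup.to_le inf_le_left) (inf_le_inf_right _ hQ.le)
      (le_inf h2 (h1.le.trans inf_le_right))
  rw [h3]; exact h1

/-- singleton version -/
theorem IsSylowIn.inf_centralizer_singleton [Finite G] {p : ℕ} [Fact p.Prime] {A K : Subgroup G}
    (hA : IsPGroup p A) (hAc : ∀ x ∈ A, ∀ y ∈ A, x * y = y * x)
    (hK : ¬ p ∣ Nat.card K) (hAK : A ≤ normalizer (K : Set G))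
    {q : ℕ} [Fact q.Prime] {Q : Subgroup G} (hQ : IsSylowIn q Q K)
    (hAQ : A ≤ normalizer (Q : Set G)) (a : G) (ha : a ∈ A) :
    IsSylowIn q (Q ⊓ centralizer {a}) (K ⊓ centralizer {a}) := by
  have := hQ.inf_centralizer hA hK hAK hAQ (zpowers a) (zpowers_le.mpr ha) (by
    intro x hx
    apply centralizer_le_normalizer
    rw [centralizer_zpowers, mem_centralizer_singleton_iff]
    exact hAc x hx a ha)
  rwa [centralizer_zpowers] at this

/-- Sylow subgroups of a factorized group. -/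
theorem sylow_factorization [Finite G] {q : ℕ} [Fact q.Prime] {C X Y P : Subgroup G}
    (hfac : (C : Set G) = (X : Set G) * (Y : Set G)) (hP : IsSylowIn q P C)
    (hPX : IsSylowIn q (P ⊓ X) X) (hPY : IsSylowIn q (P ⊓ Y) Y) :
    ((P : Set G) = ((P ⊓ X : Subgroup G) : Set G) * ((P ⊓ Y : Subgroup G) : Set G)) ∧
      IsSylowIn q (P ⊓ (X ⊓ Y)) (X ⊓ Y) := by
  have hq : q.Prime := Fact.out
  have h1 := Cfsg.Agent.Lib.Helper10.card_mul_set_mul_card_inf X Y
  rw [← hfac] at h1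
  have h2 := Cfsg.Agent.Lib.Helper10.card_mul_set_mul_card_inf (P ⊓ X) (P ⊓ Y)
  have hE : (P ⊓ X) ⊓ (P ⊓ Y) = P ⊓ (X ⊓ Y) := by
    exact (inf_inf_distrib_left P X Y).symm
  rw [hE] at h2
  set S : Set G := ((P ⊓ X : Subgroup G) : Set G) * ((P ⊓ Y : Subgroup G) : Set G) with hS
  have hSP : S ⊆ (P : Set G) := by
    rintro _ ⟨x, hx, y, hy, rfl⟩
    exact mul_mem (mem_inf.mp hx).1 (mem_inf.mp hy).1
  have e1 := relIndex_mul_natCard hP.le
  have e2 := relIndex_mul_natCard hPX.le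
  have e3 := relIndex_mul_natCard hPY.le
  have e4 := relIndex_mul_natCard (inf_le_right : P ⊓ (X ⊓ Y) ≤ X ⊓ Y)
  have n1 := hP.not_dvd_relIndex
  have n2 := hPX.not_dvd_relIndex
  have n3 := hPY.not_dvd_relIndex
  have hC : Nat.card (C : Set G) = Nat.card C := rfl
  rw [hC] at h1
  have hEpos : 0 < Nat.card (P ⊓ (X ⊓ Y) : Subgroup G) := Nat.card_pos
  have key : P.relIndex C * Nat.card P * (P ⊓ (X ⊓ Y)).relIndex (X ⊓ Y) =
      (P ⊓ X).relIndex X * (P ⊓ Y).relIndex Y * Nat.card S := by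
    apply Nat.eq_of_mul_eq_mul_right hEpos
    calc P.relIndex C * Nat.card P * (P ⊓ (X ⊓ Y)).relIndex (X ⊓ Y) *
          Nat.card (P ⊓ (X ⊓ Y) : Subgroup G)
        = (P.relIndex C * Nat.card P) * ((P ⊓ (X ⊓ Y)).relIndex (X ⊓ Y) *
          Nat.card (P ⊓ (X ⊓ Y) : Subgroup G)) := by ring
      _ = Nat.card X * Nat.card Y := by rw [e1, e4, h1]
      _ = ((P ⊓ X).relIndex X * Nat.card (P ⊓ X : Subgroup G)) *
          ((P ⊓ Y).relIndex Y * Nat.card (P ⊓ Y : Subgroup G)) := by rw [e2, e3]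
      _ = (P ⊓ X).relIndex X * (P ⊓ Y).relIndex Y *
          (Nat.card (P ⊓ X : Subgroup G) * Nat.card (P ⊓ Y : Subgroup G)) := by ring
      _ = _ := by rw [← h2]; ring
  obtain ⟨k, hk⟩ := IsPGroup.iff_card.mp hP.isPGroup
  have hcop : Nat.Coprime (Nat.card P) ((P ⊓ X).relIndex X * (P ⊓ Y).relIndex Y) := by
    rw [hk]
    apply Nat.Coprime.pow_left
    rw [Nat.Prime.coprime_iff_not_dvd hq, hq.dvd_mul]
    tauto
  have hdvd : Nat.card P ∣ Nat.card S := by
    apply hcop.dvd_of_dvd_mul_left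
    rw [← key]
    exact Dvd.intro_left _ rfl |>.mul_right _
  have hSne : 0 < Nat.card S := by
    have : Nonempty S := ⟨⟨1, 1, one_mem _, 1, one_mem _, by simp⟩⟩
    exact Nat.card_pos
  have hle : Nat.card P ≤ Nat.card S := Nat.le_of_dvd hSne hdvd
  have hSeq : S = (P : Set G) := by
    apply Set.eq_of_subset_of_ncard_le hSP _ (Set.toFinite _)
    exact hle
  refine ⟨hSeq.symm, ?_⟩
  apply isSylowIn_of_not_dvd_relIndex (hP.isPGroup.to_le inf_le_left) inf_le_right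
  intro hd
  have hcard : Nat.card S = Nat.card P := by rw [hSeq]; rfl
  rw [hcard] at key
  have hPpos : 0 < Nat.card P := Nat.card_pos
  have key2 : P.relIndex C * (P ⊓ (X ⊓ Y)).relIndex (X ⊓ Y) =
      (P ⊓ X).relIndex X * (P ⊓ Y).relIndex Y := by
    apply Nat.eq_of_mul_eq_mul_right hPpos
    rw [← key]; ring
  have : q ∣ (P ⊓ X).relIndex X * (P ⊓ Y).relIndex Y := by
    rw [← key2]; exact hd.mul_left _
  rcases hq.dvd_mul.mp this with h | h
  · exact n2 h
  · exact n3 h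

/-- The factorization lemma for `q`-groups. -/
theorem factorization_of_isPGroup [Finite G] {p : ℕ} [Fact p.Prime] (A : Subgroup G)
    (hAc : ∀ x ∈ A, ∀ y ∈ A, x * y = y * x) (hAp : ∀ x ∈ A, x ^ p = 1)
    (hA2 : p ^ 2 ≤ Nat.card A) {q : ℕ} [Fact q.Prime] :
    ∀ (n : ℕ) (Q X Y : Subgroup G), Nat.card Q = n → IsPGroup q Q → ¬ p ∣ Nat.card Q →
      A ≤ normalizer (Q : Set G) → X ≤ Q → Y ≤ Q → A ≤ normalizer (X : Set G) →
      A ≤ normalizer (Y : Set G) →
      (∀ a ∈ A, a ≠ 1 → ∀ g ∈ Q ⊓ centralizer {a}, ∃ x ∈ X ⊓ centralizer {a},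
        ∃ y ∈ Y ⊓ centralizer {a}, g = x * y) →
      ∀ g ∈ Q, ∃ x ∈ X, ∃ y ∈ Y, g = x * y := by
  intro n
  induction n using Nat.strong_induction_on with
  | _ n ih =>
    intro Q X Y hn hQ hpQ hAQ hXQ hYQ hAX hAY hfac g hg
    by_cases hXeq : X = Q
    · exact ⟨g, hXeq ▸ hg, 1, one_mem _, by simp⟩
    have hXlt : X < Q := lt_of_le_of_ne hXQ hXeq
    obtain ⟨M, hXM, hMmax⟩ := (Set.toFinite {M : Subgroup G | M < Q ∧
      A ≤ normalizer (M : Set G)}).exists_le_maximal (a := X) ⟨hXlt, hAX⟩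
    obtain ⟨hMQ, hAM⟩ := hMmax.prop
    have hnorm : Q ≤ normalizer (M : Set G) := by
      by_contra hcon
      have hlt : Q ⊓ normalizer (M : Set G) < Q :=
        lt_of_le_of_ne inf_le_left (fun h => hcon (h ▸ inf_le_right))
      have h1 := hMmax.le_of_ge (y := Q ⊓ normalizer (M : Set G))
        ⟨hlt, le_normalizer_inf_normalizer hAQ hAM⟩ (le_inf hMQ.le le_normalizer)
      obtain ⟨x, hxQ, hxN, hxM⟩ := exists_mem_normalizer_not_mem hQ hMQ
      exact hxM (h1 (mem_inf.mpr ⟨hxQ, hxN⟩))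
    have hQle : Q ≤ M ⊔ Y := by
      apply le_of_forall_centralizer_le A Q _ hAc hAp hA2 hpQ hAQ
      intro a ha ha1 z hz
      obtain ⟨x, hx, y, hy, rfl⟩ := hfac a ha ha1 z hz
      exact mul_mem (mem_sup_left (hXM (mem_inf.mp hx).1)) (mem_sup_right (mem_inf.mp hy).1)
    obtain ⟨m, hm, y, hy, rfl⟩ := (mem_sup_of_le_normalizer (hYQ.trans hnorm)).mp (hQle hg)
    obtain ⟨x, hx, y', hy', rfl⟩ := ih (Nat.card M) (hn ▸ natCard_lt_of_lt hMQ) M X (Y ⊓ M) rfl
      (hQ.to_le hMQ.le) (not_dvd_card_of_le hMQ.le hpQ) hAM hXM inf_le_right hAX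
      (le_normalizer_inf hAY hAM) (by
        intro a ha ha1 z hz
        obtain ⟨hzM, hza⟩ := mem_inf.mp hz
        obtain ⟨x, hx, y, hy, rfl⟩ := hfac a ha ha1 z (mem_inf.mpr ⟨hMQ.le hzM, hza⟩)
        refine ⟨x, hx, y, mem_inf.mpr ⟨mem_inf.mpr ⟨(mem_inf.mp hy).1, ?_⟩, (mem_inf.mp hy).2⟩, rfl⟩
        have := mul_mem (inv_mem (hXM (mem_inf.mp hx).1)) hzM
        simpa using this) m hm
    exact ⟨x, hx, y' * y, mul_mem (mem_inf.mp hy').1 hy, by group⟩

theorem IsSylowIn.card_eq [Finite G] {q : ℕ} [Fact q.Prime] {Q K : Subgroup G}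
    (h : IsSylowIn q Q K) : Nat.card Q = q ^ (Nat.card K).factorization q := by
  obtain ⟨S, rfl⟩ := h
  rw [← S.card_eq_multiplicity]
  exact Nat.card_congr (equivMapOfInjective _ _ K.subtype_injective).symm.toEquiv

/-- Kurzweil--Stellmacher 11.2.1: the factorization lemma. -/
theorem factorization [Finite G] {p : ℕ} [Fact p.Prime] (A K X Y : Subgroup G)
    (hAc : ∀ x ∈ A, ∀ y ∈ A, x * y = y * x) (hAp : ∀ x ∈ A, x ^ p = 1)
    (hA2 : p ^ 2 ≤ Nat.card A) (hK : ¬ p ∣ Nat.card K) (hAK : A ≤ normalizer (K : Set G))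
    (hX : X ≤ K) (hY : Y ≤ K) (hAX : A ≤ normalizer (X : Set G))
    (hAY : A ≤ normalizer (Y : Set G))
    (hCX : K ⊓ centralizer (A : Set G) ≤ normalizer (X : Set G))
    (hfac : ∀ a ∈ A, a ≠ 1 → ((K ⊓ centralizer {a} : Subgroup G) : Set G) =
      ((X ⊓ centralizer {a} : Subgroup G) : Set G) * ((Y ⊓ centralizer {a} : Subgroup G) : Set G)) :
    (K : Set G) = (X : Set G) * (Y : Set G) := by
  have hA : IsPGroup p A := isPGroup_of_pow_eq_one hAp
  set S : Set G := (X : Set G) * (Y : Set G) with hS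
  have hSK : S ⊆ (K : Set G) := by
    rintro _ ⟨x, hx, y, hy, rfl⟩
    exact mul_mem (hX hx) (hY hy)
  have hSne : 0 < Nat.card S := by
    have : Nonempty S := ⟨⟨1, 1, one_mem _, 1, one_mem _, by simp⟩⟩
    exact Nat.card_pos
  have hpX := not_dvd_card_of_le hX hK
  have hpY := not_dvd_card_of_le hY hK
  have key : ∀ q : ℕ, q.Prime → q ^ (Nat.card K).factorization q ∣ Nat.card S := by
    intro q hq
    haveI : Fact q.Prime := ⟨hq⟩
    obtain ⟨Yq, hYq, hAYq⟩ := exists_invariant_isSylowIn A Y hA hpY hAY q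
    obtain ⟨Q, hQ, hAQ, hYqQ⟩ := exists_invariant_isSylowIn_ge A K hA hK hAK q Yq hYq.isPGroup
      (hYq.le.trans hY) hAYq
    obtain ⟨Xq0, hXq0, hAXq0⟩ := exists_invariant_isSylowIn A X hA hpX hAX q
    obtain ⟨Q0, hQ0, hAQ0, hXq0Q0⟩ := exists_invariant_isSylowIn_ge A K hA hK hAK q Xq0
      hXq0.isPGroup (hXq0.le.trans hX) hAXq0
    obtain ⟨c, hc, hcQ⟩ := hQ0.exists_conj_centralizer hA hK hAK hQ hAQ0 hAQ
    have hXq : IsSylowIn q (conjS c Xq0) X := by
      have := hXq0.conj c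
      rwa [conjS_eq_of_mem_normalizer (hCX hc)] at this
    have hXqQ : conjS c Xq0 ≤ Q := by rw [← hcQ]; exact map_mono hXq0Q0
    have hQX : IsSylowIn q (Q ⊓ X) X := by rw [hXq.inf_eq hXqQ hQ.isPGroup]; exact hXq
    have hQY : IsSylowIn q (Q ⊓ Y) Y := by rw [hYq.inf_eq hYqQ hQ.isPGroup]; exact hYq
    have hAQX := le_normalizer_inf hAQ hAX
    have hAQY := le_normalizer_inf hAQ hAY
    have hpQ := not_dvd_card_of_le hQ.le hK
    have step : ∀ a ∈ A, a ≠ 1 →
        (((Q ⊓ centralizer {a} : Subgroup G) : Set G) =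
          ((Q ⊓ centralizer {a} ⊓ (X ⊓ centralizer {a}) : Subgroup G) : Set G) *
          ((Q ⊓ centralizer {a} ⊓ (Y ⊓ centralizer {a}) : Subgroup G) : Set G)) ∧
        IsSylowIn q (Q ⊓ centralizer {a} ⊓ ((X ⊓ centralizer {a}) ⊓ (Y ⊓ centralizer {a})))
          ((X ⊓ centralizer {a}) ⊓ (Y ⊓ centralizer {a})) := by
      intro a ha ha1
      apply sylow_factorization (hfac a ha ha1)
        (hQ.inf_centralizer_singleton hA hAc hK hAK hAQ a ha)
      · have := hQX.inf_centralizer_singleton hA hAc hpX hAX hAQX a ha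
        have e : Q ⊓ centralizer {a} ⊓ (X ⊓ centralizer {a}) = Q ⊓ X ⊓ centralizer {a} := by
          rw [← inf_inf_distrib_right]
        rw [e]; exact this
      · have := hQY.inf_centralizer_singleton hA hAc hpY hAY hAQY a ha
        have e : Q ⊓ centralizer {a} ⊓ (Y ⊓ centralizer {a}) = Q ⊓ Y ⊓ centralizer {a} := by
          rw [← inf_inf_distrib_right]
        rw [e]; exact this
    have hQfac := factorization_of_isPGroup A hAc hAp hA2 (q := q) _ Q (Q ⊓ X) (Q ⊓ Y) rfl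
      hQ.isPGroup hpQ hAQ inf_le_left inf_le_left hAQX hAQY (by
        intro a ha ha1 g hg
        have h1 : g ∈ ((Q ⊓ centralizer {a} : Subgroup G) : Set G) := hg
        rw [(step a ha ha1).1] at h1
        obtain ⟨x, hx, y, hy, rfl⟩ := h1
        have hx' := mem_inf.mp hx
        have hy' := mem_inf.mp hy
        exact ⟨x, mem_inf.mpr ⟨mem_inf.mpr ⟨(mem_inf.mp hx'.1).1, (mem_inf.mp hx'.2).1⟩,
          (mem_inf.mp hx'.1).2⟩, y, mem_inf.mpr ⟨mem_inf.mpr ⟨(mem_inf.mp hy'.1).1,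
          (mem_inf.mp hy'.2).1⟩, (mem_inf.mp hy'.1).2⟩, rfl⟩)
    have hQset : (Q : Set G) = ((Q ⊓ X : Subgroup G) : Set G) * ((Q ⊓ Y : Subgroup G) : Set G) := by
      apply Set.Subset.antisymm
      · intro g hg
        obtain ⟨x, hx, y, hy, rfl⟩ := hQfac g hg
        exact ⟨x, hx, y, hy, rfl⟩
      · rintro _ ⟨x, hx, y, hy, rfl⟩
        exact mul_mem (mem_inf.mp hx).1 (mem_inf.mp hy).1
    -- `E` is a Sylow subgroup of `X ⊓ Y`
    have hAE : A ≤ normalizer ((Q ⊓ (X ⊓ Y) : Subgroup G) : Set G) :=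
      le_normalizer_inf hAQ (le_normalizer_inf hAX hAY)
    have hE : IsSylowIn q (Q ⊓ (X ⊓ Y)) (X ⊓ Y) := by
      obtain ⟨E', hE', hAE', hEE'⟩ := exists_invariant_isSylowIn_ge A (X ⊓ Y) hA
        (not_dvd_card_of_le inf_le_left hpX) (le_normalizer_inf hAX hAY) q (Q ⊓ (X ⊓ Y))
        (hQ.isPGroup.to_le inf_le_left) inf_le_right hAE
      have hle : E' ≤ Q ⊓ (X ⊓ Y) := by
        apply le_of_forall_centralizer_le A E' _ hAc hAp hA2
          (not_dvd_card_of_le (hE'.le.trans inf_le_left) hpX) hAE'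
        intro a ha ha1
        have h1 := (step a ha ha1).2
        have h2 := h1.eq_of_le (R := E' ⊓ centralizer {a}) (hE'.isPGroup.to_le inf_le_left)
          (le_inf (le_inf (inf_le_left.trans (hE'.le.trans inf_le_left)) inf_le_right)
            (le_inf (inf_le_left.trans (hE'.le.trans inf_le_right)) inf_le_right))
          (le_inf (le_trans (le_inf (inf_le_left.trans inf_le_left)
            (le_inf (inf_le_right.trans (inf_le_left.trans inf_le_left))
              (inf_le_right.trans (inf_le_right.trans inf_le_left)))) hEE')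
            (inf_le_left.trans inf_le_right))
        rw [h2]
        exact le_inf (inf_le_left.trans inf_le_left)
            (le_inf (inf_le_right.trans (inf_le_left.trans inf_le_left))
              (inf_le_right.trans (inf_le_right.trans inf_le_left)))
      rw [le_antisymm hEE' hle]; exact hE'
    -- counting
    have c1 := Cfsg.Agent.Lib.Helper10.card_mul_set_mul_card_inf X Y
    have c2 := Cfsg.Agent.Lib.Helper10.card_mul_set_mul_card_inf (Q ⊓ X) (Q ⊓ Y)
    rw [← hQset, ← inf_inf_distrib_left] at c2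
    have hQc : Nat.card (Q : Set G) = Nat.card Q := rfl
    rw [hQc] at c2
    rw [← hS] at c1
    have e2 := relIndex_mul_natCard hQX.le
    have e3 := relIndex_mul_natCard hQY.le
    have e4 := relIndex_mul_natCard hE.le
    have n4 := hE.not_dvd_relIndex
    have hEpos : 0 < Nat.card (Q ⊓ (X ⊓ Y) : Subgroup G) := Nat.card_pos
    have key : Nat.card S * (Q ⊓ (X ⊓ Y)).relIndex (X ⊓ Y) =
        (Q ⊓ X).relIndex X * (Q ⊓ Y).relIndex Y * Nat.card Q := by
      apply Nat.eq_of_mul_eq_mul_right hEpos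
      calc Nat.card S * (Q ⊓ (X ⊓ Y)).relIndex (X ⊓ Y) * Nat.card (Q ⊓ (X ⊓ Y) : Subgroup G)
          = Nat.card S * ((Q ⊓ (X ⊓ Y)).relIndex (X ⊓ Y) *
              Nat.card (Q ⊓ (X ⊓ Y) : Subgroup G)) := by ring
        _ = Nat.card X * Nat.card Y := by rw [e4, c1]
        _ = ((Q ⊓ X).relIndex X * Nat.card (Q ⊓ X : Subgroup G)) *
            ((Q ⊓ Y).relIndex Y * Nat.card (Q ⊓ Y : Subgroup G)) := by rw [e2, e3]
        _ = (Q ⊓ X).relIndex X * (Q ⊓ Y).relIndex Y *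
            (Nat.card (Q ⊓ X : Subgroup G) * Nat.card (Q ⊓ Y : Subgroup G)) := by ring
        _ = _ := by rw [← c2]; ring
    rw [← hQ.card_eq]
    have hcop : Nat.Coprime (Nat.card Q) ((Q ⊓ (X ⊓ Y)).relIndex (X ⊓ Y)) := by
      rw [hQ.card_eq]
      apply Nat.Coprime.pow_left
      rwa [Nat.Prime.coprime_iff_not_dvd hq]
    apply hcop.dvd_of_dvd_mul_right
    rw [key]
    exact dvd_mul_left _ _
  have hdvd : Nat.card K ∣ Nat.card S := by
    rw [← Nat.factorization_prime_le_iff_dvd Nat.card_pos.ne' hSne.ne']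
    intro q hq
    exact (hq.pow_dvd_iff_le_factorization hSne.ne').mp (key q hq)
  exact (Set.eq_of_subset_of_ncard_le hSK (Nat.le_of_dvd hSne hdvd) (Set.toFinite _)).symm

end Cfsg.Agent.Lib.Helper22
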