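import Mathlib
import Cfsg.Prelude.Def_OddOrderLocal
import Cfsg.Agent.Lib.Helper23.Cores
import Cfsg.Agent.Lib.Helper22.CoprimeP

/-!
# Ambient API for `Cfsg.piCoreOf`, `Cfsg.invSubgroups`
-/

set_option autoImplicit false

namespace Cfsg.Agent.Lib.Helper22

open Subgroup Cfsg

variable {G : Type*} [Group G]

theorem piCore_map_le {X Y : Type*} [Group X] [Group Y] (π : Set ℕ) (φ : X ≃* Y) :
    (piCore π X).map φ.toMonoidHom ≤ piCore π Y := by
  unfold piCore
  rw [Subgroup.map_le_iff_le_comap]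
  refine sSup_le ?_
  rintro N ⟨hN, hNπ⟩
  rw [← Subgroup.map_le_iff_le_comap]
  apply le_sSup
  refine ⟨hN.map _ φ.surjective, ?_⟩
  intro p hp hd
  apply hNπ p hp
  rwa [Subgroup.card_map_of_injective φ.injective] at hd

theorem piCore_map_equiv {X Y : Type*} [Group X] [Group Y] (π : Set ℕ) (φ : X ≃* Y) :
    (piCore π X).map φ.toMonoidHom = piCore π Y := by
  apply le_antisymm (piCore_map_le π φ)
  have h := Subgroup.map_mono (f := φ.toMonoidHom) (piCore_map_le π φ.symm)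
  rw [Subgroup.map_map] at h
  have e : φ.toMonoidHom.comp φ.symm.toMonoidHom = MonoidHom.id Y := by
    ext y; simp
  rwa [e, Subgroup.map_id] at h

theorem piCoreOf_le (π : Set ℕ) (X : Subgroup G) : piCoreOf π X ≤ X :=
  map_subtype_le _

theorem piCoreOf_primes [Finite G] (π : Set ℕ) (X : Subgroup G) :
    ∀ p : ℕ, p.Prime → p ∣ Nat.card (piCoreOf π X) → p ∈ π := by
  intro p hp hd
  unfold piCoreOf at hd
  rw [Subgroup.card_map_of_injective X.subtype_injective] at hd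
  exact Cfsg.Agent.Lib.Helper23.piCore_primes π X p hp hd

theorem le_piCoreOf (π : Set ℕ) {N X : Subgroup G} (hNX : N ≤ X)
    (hn : X ≤ normalizer (N : Set G)) (hπ : ∀ p : ℕ, p.Prime → p ∣ Nat.card N → p ∈ π) :
    N ≤ piCoreOf π X := by
  have h1 : N.subgroupOf X ≤ piCore π X := by
    apply le_sSup
    refine ⟨(normal_subgroupOf_iff_le_normalizer hNX).mpr hn, ?_⟩
    intro p hp hd
    apply hπ p hp
    rwa [Nat.card_congr (subgroupOfEquivOfLe hNX).toEquiv] at hd
  intro x hx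
  exact ⟨⟨x, hNX hx⟩, h1 (mem_subgroupOf.mpr hx), rfl⟩

theorem normalizer_le_normalizer_map_subtype' (K : Subgroup G)
    (C : Subgroup K) (hC : ∀ φ : K ≃* K, C.map φ.toMonoidHom = C) :
    normalizer (K : Set G) ≤ normalizer ((C.map K.subtype : Subgroup G) : Set G) := by
  rw [le_normalizer_iff]
  rintro a ha _ ⟨k, hk, rfl⟩
  have h1 : (K.normalizerMonoidHom ⟨a, ha⟩ : K ≃* K) k ∈ C := by
    have := hC (K.normalizerMonoidHom ⟨a, ha⟩)
    rw [← this]
    exact ⟨k, hk, rfl⟩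
  exact ⟨_, h1, rfl⟩

theorem normalizer_le_normalizer_piCoreOf (π : Set ℕ) (X : Subgroup G) :
    normalizer (X : Set G) ≤ normalizer ((piCoreOf π X : Subgroup G) : Set G) :=
  normalizer_le_normalizer_map_subtype' X _ (fun φ => piCore_map_equiv π φ)

theorem le_normalizer_piCoreOf (π : Set ℕ) (X : Subgroup G) :
    X ≤ normalizer ((piCoreOf π X : Subgroup G) : Set G) :=
  le_normalizer.trans (normalizer_le_normalizer_piCoreOf π X)

/-- a group all of whose prime divisors are `q` is a `q`-group -/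
theorem isPGroup_of_primes [Finite G] {q : ℕ} {Y : Subgroup G}
    (h : ∀ p : ℕ, p.Prime → p ∣ Nat.card Y → p ∈ ({q} : Set ℕ)) : IsPGroup q Y := by
  have h1 := Nat.eq_prime_pow_of_unique_prime_dvd (n := Nat.card Y) (p := q) Nat.card_pos.ne'
    (fun {d} hd hdvd => h d hd hdvd)
  exact IsPGroup.of_card h1

theorem primes_of_isPGroup [Finite G] {q : ℕ} (hq : q.Prime) {Y : Subgroup G} (h : IsPGroup q Y) :
    ∀ p : ℕ, p.Prime → p ∣ Nat.card Y → p ∈ ({q} : Set ℕ) := by
  intro p hp hd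
  have : Fact q.Prime := ⟨hq⟩
  obtain ⟨k, hk⟩ := IsPGroup.iff_card.mp h
  rw [hk] at hd
  exact (Nat.prime_dvd_prime_iff_eq hp hq).mp (hp.dvd_of_dvd_pow hd)

theorem coprime_of_primes {n a b : ℕ} (ha : ∀ r : ℕ, r.Prime → r ∣ a → r ∣ n)
    (hb : ∀ r : ℕ, r.Prime → r ∣ b → r ∈ primesNotDvd n) : a.Coprime b := by
  apply Nat.coprime_of_dvd
  intro k hk hka hkb
  exact (hb k hk hkb).2 (ha k hk hka)

end Cfsg.Agent.Lib.Helper22
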