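import Mathlib
import Cfsg.Prelude.Def_Balance
import Cfsg.Agent.Lib.Helper22.Generation
import Cfsg.Agent.S1280
import Cfsg.Agent.S1282

/-!
# Solvable signalizer functors: the family, the transitivity theorem
-/

set_option autoImplicit false

namespace Cfsg.Agent.Lib.Helper22

open Subgroup Cfsg

variable {G : Type*} [Group G]

theorem elemAb_comm {p : ℕ} {A : Subgroup G} (hA : IsElementaryAbelian p A) :
    ∀ x ∈ A, ∀ y ∈ A, x * y = y * x := by
  intro x hx y hy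
  have := hA.1.is_comm.comm ⟨x, hx⟩ ⟨y, hy⟩
  exact congrArg Subtype.val this

theorem elemAb_isPGroup {p : ℕ} {A : Subgroup G} (hA : IsElementaryAbelian p A) : IsPGroup p A := by
  rintro ⟨x, hx⟩
  exact ⟨1, Subtype.ext (by simpa using hA.2 x hx)⟩

theorem signalizerInf_le {A : Subgroup G} {θ : G → Subgroup G} {a : G} (ha : a ∈ A) (ha1 : a ≠ 1) :
    signalizerInf A θ ≤ θ a :=
  iInf_le (fun a : {a : G // a ∈ A ∧ a ≠ 1} => θ (a : G)) ⟨a, ha, ha1⟩

theorem signalizerInf_le_centralizer {p : ℕ} {A : Subgroup G} {θ : G → Subgroup G}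
    (hθ : IsSignalizerFunctor p A θ) : signalizerInf A θ ≤ centralizer (A : Set G) := by
  intro c hc
  rw [mem_centralizer_iff]
  intro a ha
  by_cases ha1 : a = 1
  · simp [ha1]
  · have h1 := hθ.1 a ha ha1 (signalizerInf_le ha ha1 hc)
    exact mem_centralizer_singleton_iff.mp h1 |>.symm

theorem family_le_normalizer {p : ℕ} {A : Subgroup G} {θ : G → Subgroup G} {U : Subgroup G}
    (hU : U ∈ signalizerFamily p A θ) : A ≤ normalizer (U : Set G) :=
  le_normalizer_iff.mpr hU.2.2.1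

theorem family_of_le [Finite G] {p : ℕ} {A : Subgroup G} {θ : G → Subgroup G} {U V : Subgroup G}
    (hU : U ∈ signalizerFamily p A θ) (hVU : V ≤ U) (hAV : A ≤ normalizer (V : Set G)) :
    V ∈ signalizerFamily p A θ := by
  obtain ⟨h1, h2, _, h4⟩ := hU
  refine ⟨Group.isSolvable_of_isSolvable_injective (f := inclusion hVU) (inclusion_injective _),
    not_dvd_card_of_le hVU h2, le_normalizer_iff.mp hAV, ?_⟩
  intro a ha ha1
  exact (inf_le_inf_right _ hVU).trans (h4 a ha ha1)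

theorem family_theta {p : ℕ} {A : Subgroup G} {θ : G → Subgroup G}
    (hθ : IsSolvableSignalizerFunctor p A θ) {a : G} (ha : a ∈ A) (ha1 : a ≠ 1) :
    θ a ∈ signalizerFamily p A θ :=
  ⟨hθ.2 a ha ha1, hθ.1.2.1 a ha ha1, hθ.1.2.2.1 a ha ha1, hθ.1.2.2.2 a ha ha1⟩

theorem family_bot {p : ℕ} [Fact p.Prime] {A : Subgroup G} {θ : G → Subgroup G} :
    (⊥ : Subgroup G) ∈ signalizerFamily p A θ := by
  refine ⟨inferInstance, ?_, ?_, ?_⟩
  · rw [card_bot]
    exact (Fact.out : p.Prime).one_lt.ne' ∘ Nat.dvd_one.mp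
  · intro b _ u hu
    rw [mem_bot] at hu ⊢
    simp [hu]
  · intro a _ _
    exact inf_le_left.trans bot_le

theorem family_inf_centralizer_le {p : ℕ} {A : Subgroup G} {θ : G → Subgroup G} {H : Subgroup G}
    (hH : H ∈ signalizerFamily p A θ) : H ⊓ centralizer (A : Set G) ≤ signalizerInf A θ := by
  refine le_iInf ?_
  rintro ⟨a, ha, ha1⟩
  refine le_trans (inf_le_inf_left _ (centralizer_le ?_)) (hH.2.2.2 a ha ha1)
  simpa using ha

theorem family_conj {p : ℕ} {A : Subgroup G} {θ : G → Subgroup G}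
    (hθ : IsSignalizerFunctor p A θ) {U : Subgroup G} (hU : U ∈ signalizerFamily p A θ)
    {c : G} (hc : c ∈ signalizerInf A θ) : conjS c U ∈ signalizerFamily p A θ := by
  obtain ⟨h1, h2, h3, h4⟩ := hU
  have hcA := signalizerInf_le_centralizer hθ hc
  have e : U ≃* conjS c U := U.equivMapOfInjective _ (MulAut.conj c).injective
  refine ⟨Group.isSolvable_of_surjective (f := e.toMonoidHom) e.surjective, ?_, ?_, ?_⟩
  · rw [← Nat.card_congr e.toEquiv]; exact h2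
  · rintro b hb _ ⟨u, hu, rfl⟩
    have hbc : b * c = c * b := mem_centralizer_iff.mp hcA b hb
    refine ⟨b * u * b⁻¹, h3 b hb u hu, ?_⟩
    simp only [MulEquiv.coe_toMonoidHom, MulAut.conj_apply]
    have hbc' : c⁻¹ * b⁻¹ = b⁻¹ * c⁻¹ := by
      rw [← mul_inv_rev, ← mul_inv_rev, hbc]
    calc c * (b * u * b⁻¹) * c⁻¹ = (c * b) * u * (b⁻¹ * c⁻¹) := by group
      _ = (b * c) * u * (c⁻¹ * b⁻¹) := by rw [hbc, hbc']
      _ = b * (c * u * c⁻¹) * b⁻¹ := by group
  · intro a ha ha1 x hx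
    rw [mem_inf] at hx
    obtain ⟨⟨u, hu, rfl⟩, hxa⟩ := hx
    have hca : c ∈ θ a := signalizerInf_le ha ha1 hc
    have hac : a * c = c * a := mem_centralizer_iff.mp hcA a ha
    simp only [MulEquiv.coe_toMonoidHom, MulAut.conj_apply] at hxa ⊢
    have hua : u ∈ centralizer {a} := by
      rw [mem_centralizer_singleton_iff] at hxa ⊢
      have hc1 : Commute c a := hac.symm
      have hc2 : Commute (c * u * c⁻¹) a := hxa
      have hc3 : Commute (c⁻¹ * (c * u * c⁻¹) * c) a := (hc1.inv_left.mul_left hc2).mul_left hc1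
      have he : c⁻¹ * (c * u * c⁻¹) * c = u := by group
      rw [he] at hc3
      exact hc3.eq
    exact mul_mem (mul_mem hca (h4 a ha ha1 (mem_inf.mpr ⟨hu, hua⟩))) (inv_mem hca)

/-- the maximal `q`-members of the family -/
def maxQFamily (p : ℕ) (A : Subgroup G) (θ : G → Subgroup G) (q : ℕ) : Set (Subgroup G) :=
  {Q | Q ∈ signalizerFamily p A θ ∧ IsPGroup q Q ∧
    ∀ R ∈ signalizerFamily p A θ, IsPGroup q R → Q ≤ R → R = Q}

theorem exists_maxQFamily_ge [Finite G] {p : ℕ} {A : Subgroup G} {θ : G → Subgroup G} {q : ℕ}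
    {U : Subgroup G} (hU : U ∈ signalizerFamily p A θ) (hUq : IsPGroup q U) :
    ∃ Q ∈ maxQFamily p A θ q, U ≤ Q := by
  obtain ⟨Q, hUQ, hQmax⟩ := (Set.toFinite {Q : Subgroup G | Q ∈ signalizerFamily p A θ ∧
    IsPGroup q Q}).exists_le_maximal (a := U) ⟨hU, hUq⟩
  refine ⟨Q, ⟨hQmax.prop.1, hQmax.prop.2, ?_⟩, hUQ⟩
  intro R hR hRq hQR
  exact le_antisymm (hQmax.le_of_ge ⟨hR, hRq⟩ hQR) hQR

theorem conjS_le_conjS {c : G} {U V : Subgroup G} (h : U ≤ V) : conjS c U ≤ conjS c V :=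
  map_mono h

theorem conjS_inv_conjS (c : G) (U : Subgroup G) : conjS c⁻¹ (conjS c U) = U := by
  rw [← conjS_mul, inv_mul_cancel, conjS_one]

theorem conjS_conjS_inv (c : G) (U : Subgroup G) : conjS c (conjS c⁻¹ U) = U := by
  rw [← conjS_mul, mul_inv_cancel, conjS_one]

theorem isPGroup_conjS {q : ℕ} {c : G} {U : Subgroup G} (h : IsPGroup q U) :
    IsPGroup q (conjS c U) := h.map _

theorem maxQFamily_conj {p : ℕ} {A : Subgroup G} {θ : G → Subgroup G} {q : ℕ}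
    (hθ : IsSignalizerFunctor p A θ) {Q : Subgroup G} (hQ : Q ∈ maxQFamily p A θ q)
    {c : G} (hc : c ∈ signalizerInf A θ) : conjS c Q ∈ maxQFamily p A θ q := by
  refine ⟨family_conj hθ hQ.1 hc, isPGroup_conjS hQ.2.1, ?_⟩
  intro R hR hRq hle
  have h1 : Q ≤ conjS c⁻¹ R := by
    have := conjS_le_conjS (c := c⁻¹) hle
    rwa [conjS_inv_conjS] at this
  have h2 := hQ.2.2 _ (family_conj hθ hR (inv_mem hc)) (isPGroup_conjS hRq) h1
  rw [← h2, conjS_conjS_inv]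

/-- conjugacy under `θ(C_G(A))` -/
def SigConj (A : Subgroup G) (θ : G → Subgroup G) (Q Q' : Subgroup G) : Prop :=
  ∃ c ∈ signalizerInf A θ, conjS c Q = Q'

theorem SigConj.refl (A : Subgroup G) (θ : G → Subgroup G) (Q : Subgroup G) : SigConj A θ Q Q :=
  ⟨1, one_mem _, conjS_one Q⟩

theorem SigConj.symm {A : Subgroup G} {θ : G → Subgroup G} {Q Q' : Subgroup G}
    (h : SigConj A θ Q Q') : SigConj A θ Q' Q := by
  obtain ⟨c, hc, rfl⟩ := h
  exact ⟨c⁻¹, inv_mem hc, conjS_inv_conjS c Q⟩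

theorem SigConj.trans {A : Subgroup G} {θ : G → Subgroup G} {Q Q' Q'' : Subgroup G}
    (h : SigConj A θ Q Q') (h' : SigConj A θ Q' Q'') : SigConj A θ Q Q'' := by
  obtain ⟨c, hc, rfl⟩ := h
  obtain ⟨d, hd, rfl⟩ := h'
  exact ⟨d * c, mul_mem hd hc, conjS_mul d c Q⟩

/-- **Transitivity theorem** for solvable signalizer functors. -/
theorem transitivity [Finite G] {p : ℕ} [Fact p.Prime] {A : Subgroup G}
    (hA : IsElementaryAbelian p A) (hA3 : p ^ 3 ≤ Nat.card A) {θ : G → Subgroup G}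
    (hθ : IsSolvableSignalizerFunctor p A θ) {q : ℕ} [Fact q.Prime] :
    ∀ (n : ℕ) (Q₁ Q₂ : Subgroup G), Q₁ ∈ maxQFamily p A θ q → Q₂ ∈ maxQFamily p A θ q →
      Nat.card G - Nat.card (Q₁ ⊓ Q₂ : Subgroup G) = n → SigConj A θ Q₁ Q₂ := by
  have hAp : IsPGroup p A := elemAb_isPGroup hA
  have hA2 : p ^ 2 ≤ Nat.card A :=
    le_trans (Nat.pow_le_pow_right (Fact.out : p.Prime).pos (by norm_num)) hA3
  intro n
  induction n using Nat.strong_induction_on with
  | _ n ih =>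
    intro Q₁ Q₂ hQ₁ hQ₂ hn
    -- the induction hypothesis in a convenient form
    have IH : ∀ T₁ T₂ : Subgroup G, T₁ ∈ maxQFamily p A θ q → T₂ ∈ maxQFamily p A θ q →
        ∀ R : Subgroup G, Q₁ ⊓ Q₂ < R → R ≤ T₁ → R ≤ T₂ → SigConj A θ T₁ T₂ := by
      intro T₁ T₂ hT₁ hT₂ R hR h1 h2
      refine ih _ ?_ T₁ T₂ hT₁ hT₂ rfl
      have h3 : Nat.card (Q₁ ⊓ Q₂ : Subgroup G) < Nat.card (T₁ ⊓ T₂ : Subgroup G) :=
        natCard_lt_of_lt (lt_of_lt_of_le hR (le_inf h1 h2))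
      have h4 : Nat.card (T₁ ⊓ T₂ : Subgroup G) ≤ Nat.card G := Subgroup.card_le_card_group _
      omega
    by_cases hD₁ : Q₁ ⊓ Q₂ = Q₁
    · have h1 : Q₁ ≤ Q₂ := inf_eq_left.mp hD₁
      rw [hQ₁.2.2 Q₂ hQ₂.1 hQ₂.2.1 h1]
      exact SigConj.refl _ _ _
    by_cases hD₂ : Q₁ ⊓ Q₂ = Q₂
    · have h1 : Q₂ ≤ Q₁ := inf_eq_right.mp hD₂
      rw [hQ₂.2.2 Q₁ hQ₁.1 hQ₁.2.1 h1]
      exact SigConj.refl _ _ _
    have hqp : q ≠ p := by
      rintro rfl
      apply hD₁
      have h1 : Q₁ = ⊥ := by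
        obtain ⟨k, hk⟩ := IsPGroup.iff_card.mp hQ₁.2.1
        have h2 := hQ₁.1.2.1
        rw [hk] at h2
        have hk0 : k = 0 := by
          by_contra h
          exact h2 (dvd_pow_self _ h)
        rw [hk0, pow_zero] at hk
        exact (card_eq_one).mp hk
      rw [h1]; simp
    have hAQ₁ := family_le_normalizer hQ₁.1
    have hAQ₂ := family_le_normalizer hQ₂.1
    obtain ⟨a, ha, ha1, hN₁, hN₂⟩ := Cfsg.Agent.S1282.result p A hA hA3 q hqp Q₁ Q₂ hQ₁.2.1 hQ₂.2.1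
      hAQ₁ hAQ₂ hD₁ hD₂
    set D := Q₁ ⊓ Q₂ with hD
    have hAD : A ≤ normalizer (D : Set G) := le_normalizer_inf hAQ₁ hAQ₂
    have hDF : D ∈ signalizerFamily p A θ := family_of_le hQ₁.1 inf_le_left hAD
    have hAθ : A ≤ normalizer (θ a : Set G) := family_le_normalizer (family_theta hθ ha ha1)
    have hYF : θ a ⊓ normalizer (D : Set G) ∈ signalizerFamily p A θ :=
      family_of_le (family_theta hθ ha ha1) inf_le_left (le_normalizer_inf_normalizer hAθ hAD)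
    have hHF : D ⊔ (θ a ⊓ normalizer (D : Set G)) ∈ signalizerFamily p A θ :=
      Cfsg.Agent.S1280.result p A hA hA2 θ hθ _ _ hDF hYF inf_le_right
    set H := D ⊔ (θ a ⊓ normalizer (D : Set G)) with hH
    have hAH := family_le_normalizer hHF
    have hAa : A ≤ normalizer ((centralizer {a} : Subgroup G) : Set G) := by
      intro t ht
      have := mem_normalizer_inf_centralizer_singleton (X := ⊤) (t := t) (c := a)
        (by rw [normalizer_eq_top]; trivial) (elemAb_comm hA t ht a ha)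
      simpa using this
    -- the construction for each `i`
    have main : ∀ Q : Subgroup G, Q ∈ maxQFamily p A θ q → D ≤ Q →
        ¬ (normalizer (D : Set G) ⊓ Q ⊓ centralizer {a} ≤ D) →
        ∃ S T R : Subgroup G, IsSylowIn q S H ∧ A ≤ normalizer (S : Set G) ∧ D < R ∧ R ≤ S ∧
          R ≤ Q ∧ S ≤ T ∧ T ∈ maxQFamily p A θ q := by
      intro Q hQ hDQ hN
      have hAQ := family_le_normalizer hQ.1
      set N := normalizer (D : Set G) ⊓ Q ⊓ centralizer {a} with hNdef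
      have hAN : A ≤ normalizer (N : Set G) := by
        apply le_normalizer_inf _ hAa
        rw [inf_comm]
        exact le_normalizer_inf_normalizer hAQ hAD
      have hNQ : N ≤ Q := inf_le_left.trans inf_le_right
      have hRQ : D ⊔ N ≤ Q := sup_le hDQ hNQ
      have hRq : IsPGroup q (D ⊔ N : Subgroup G) := hQ.2.1.to_le hRQ
      have hNθ : N ≤ θ a := by
        refine le_trans ?_ (hQ.1.2.2.2 a ha ha1)
        exact le_inf hNQ inf_le_right
      have hRH : D ⊔ N ≤ H :=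
        sup_le_sup_left (le_inf hNθ (inf_le_left.trans inf_le_left)) _
      have hAR : A ≤ normalizer ((D ⊔ N : Subgroup G) : Set G) :=
        (le_inf hAD hAN).trans (normalizer_inf_normalizer_le_normalizer_sup D N)
      obtain ⟨S, hS, hAS, hRS⟩ := exists_invariant_isSylowIn_ge A H hAp hHF.2.1 hAH q _ hRq hRH hAR
      obtain ⟨T, hT, hST⟩ := exists_maxQFamily_ge (family_of_le hHF hS.le hAS) hS.isPGroup
      refine ⟨S, T, D ⊔ N, hS, hAS, ?_, hRS, hRQ, hST, hT⟩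
      refine lt_of_le_of_ne le_sup_left ?_
      intro h
      apply hN
      rw [h]
      exact le_sup_right
    obtain ⟨S₁, T₁, R₁, hS₁, hAS₁, hDR₁, hRS₁, hRQ₁, hST₁, hT₁⟩ := main Q₁ hQ₁ inf_le_left hN₁
    obtain ⟨S₂, T₂, R₂, hS₂, hAS₂, hDR₂, hRS₂, hRQ₂, hST₂, hT₂⟩ := main Q₂ hQ₂ inf_le_right hN₂
    obtain ⟨c, hc, hcS⟩ := hS₁.exists_conj_centralizer hAp hHF.2.1 hAH hS₂ hAS₁ hAS₂
    have hcI : c ∈ signalizerInf A θ := family_inf_centralizer_le hHF hc
    have e1 : SigConj A θ Q₁ T₁ := IH Q₁ T₁ hQ₁ hT₁ R₁ hDR₁ hRQ₁ (hRS₁.trans hST₁)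
    have e2 : SigConj A θ T₁ (conjS c T₁) := ⟨c, hcI, rfl⟩
    have e3 : SigConj A θ (conjS c T₁) T₂ :=
      IH _ T₂ (maxQFamily_conj hθ.1 hT₁ hcI) hT₂ R₂ hDR₂
        (hRS₂.trans (hcS ▸ conjS_le_conjS hST₁)) (hRS₂.trans hST₂)
    have e4 : SigConj A θ T₂ Q₂ := (IH Q₂ T₂ hQ₂ hT₂ R₂ hDR₂ hRQ₂ (hRS₂.trans hST₂)).symm
    exact ((e1.trans e2).trans e3).trans e4

end Cfsg.Agent.Lib.Helper22
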